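import Cfsg.Agent.H962.RootSL
import Cfsg.Agent.H130.E7.Dsl

/-!
# S3482: orders of elements of the diagonal `SL₂(q)` of `E₇(q)` centralising `F₄(q)` (helper962)

`dsl F` of helper130 has kernel `{1, -1}`: elements of order `p`, `(q - 1) / e`, `(q + 1) / e`, `e = gcd 2 (q - 1)`.
-/

set_option autoImplicit false
set_option linter.unusedSectionVars false

namespace Cfsg.Agent.H962.E7.Diag

open Subgroup Cfsg Cfsg.Lie Cfsg.Lie.ChevalleyDatum
open Cfsg.Agent.ChevalleyStructure Cfsg.Agent.ChevalleyStructure.Elts Cfsg.Agent.ChevalleyStructure.SL2Hom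
open Cfsg.Agent.H129.FE Cfsg.Agent.H130.E7 Cfsg.Agent.H962.RootSL
open Cfsg.Agent.GpExc.Field (glMap emb coe_emb glMap_xG emb_injective coe_glMap)
open Cfsg.Agent.BpExc.LangFr Cfsg.Agent.BpExc.FamExt Cfsg.Agent.H378.TorFin

universe u v

section

variable {F : Type u} [Field F] {k : Type v} [Field k]

theorem emb_xg (f : F →+* k) (r : ℕ) (s : F) : emb hE f (xg F hE r s) = xg k hE r (f s) := by
  apply Subtype.ext
  rw [coe_emb]
  exact glMap_xG hE f r s

theorem map_up (f : F →+* k) (t : F) : Matrix.SpecialLinearGroup.map f (up t) = up (f t) := map_sx f t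

theorem map_lo (f : F →+* k) (t : F) : Matrix.SpecialLinearGroup.map f (lo t) = lo (f t) := map_sy f t

theorem dsl_map (f : F →+* k) (A : H130.E7.SL F) :
    emb hE f (dsl F A) = dsl k (Matrix.SpecialLinearGroup.map f A) := by
  have h := closure_ind (MonoidHom.eqLocus ((emb hE f).comp (dsl F)) ((dsl k).comp (Matrix.SpecialLinearGroup.map f)))
    (MonoidHom.id (H130.E7.SL F)) (fun t => ?_) (fun t => ?_) A
  · exact h
  · show emb hE f (dsl F (up t)) = dsl k (Matrix.SpecialLinearGroup.map f (up t))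
    rw [map_up, dsl_up, dsl_up, dg_P, dg_P, map_mul, map_mul]
    erw [emb_xg, emb_xg, emb_xg]
    rw [map_neg]
  · show emb hE f (dsl F (lo t)) = dsl k (Matrix.SpecialLinearGroup.map f (lo t))
    rw [map_lo, dsl_lo, dsl_lo, dg_N, dg_N, map_mul, map_mul]
    erw [emb_xg, emb_xg, emb_xg]
    rw [map_neg]

theorem dt_one : (dt (1 : Fˣ) : H130.E7.SL F) = 1 := by
  apply Subtype.ext
  show !![((1 : Fˣ) : F), 0; 0, ((1 : Fˣ) : F)⁻¹] = 1
  rw [Units.val_one, inv_one, Matrix.one_fin_two]

theorem dt_pow (t : Fˣ) (j : ℕ) : dt t ^ j = dt (t ^ j) := by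
  induction j with
  | zero => rw [pow_zero, pow_zero, dt_one]
  | succ j ih =>
    rw [pow_succ, ih]
    apply Subtype.ext
    show !![((t ^ j : Fˣ) : F), 0; 0, ((t ^ j : Fˣ) : F)⁻¹] * !![(t : F), 0; 0, (t : F)⁻¹] =
      !![((t ^ (j + 1) : Fˣ) : F), 0; 0, ((t ^ (j + 1) : Fˣ) : F)⁻¹]
    rw [pow_succ, Units.val_mul]
    ext a b
    fin_cases a <;> fin_cases b <;> simp [mul_comm]

theorem dsl_dt_iff (t : Fˣ) : dsl F (dt t) = 1 ↔ t ^ 2 = 1 := by
  constructor
  · intro h
    by_contra h1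
    refine dsl_dt_ne (t := t) (fun h2 => h1 ?_) h
    apply Units.ext
    rw [Units.val_pow_eq_pow_val, h2, Units.val_one]
  · intro h
    have h1 : (t : F) ^ 2 = 1 := by
      rw [← Units.val_pow_eq_pow_val, h, Units.val_one]
    rw [pow_two] at h1
    rcases mul_self_eq_one_iff.1 h1 with h2 | h2
    · have : t = 1 := Units.ext h2
      rw [this, dt_one, map_one]
    · have : t = -1 := Units.ext (by rw [h2, Units.val_neg, Units.val_one])
      rw [this]
      exact dsl_dt_neg_one

theorem orderOf_dsl_dt (t : Fˣ) : orderOf (dsl F (dt t)) = orderOf (t ^ 2) := by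
  apply orderOf_eq_orderOf_iff.2
  intro j
  rw [← map_pow, dt_pow, dsl_dt_iff, ← pow_mul, ← pow_mul, mul_comm]

theorem orderOf_sq {t : Fˣ} {n : ℕ} (hn : orderOf t = n) : orderOf (t ^ 2) = n / Nat.gcd n 2 := by
  rw [orderOf_pow' t two_ne_zero, hn]

end

section

variable {k : Type u} [Field k] [IsAlgClosed k]

theorem dsl_up_ne : dsl k (up 1) ≠ 1 := by
  intro h
  have h1 : ∀ s : k, dsl k (up s) = 1 := by
    intro s
    by_cases hs : s = 0
    · have : (up (0 : k)) = 1 := by
        apply Subtype.ext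
        show !![(1 : k), 0; 0, 1] = 1
        rw [Matrix.one_fin_two]
      rw [hs, this, map_one]
    · obtain ⟨t, ht⟩ := IsAlgClosed.exists_pow_nat_eq s (n := 2) two_pos
      have ht0 : t ≠ 0 := by
        rintro rfl
        apply hs
        rw [← ht]
        norm_num
      have e := sx_conj (Units.mk0 t ht0) (1 : k)
      rw [mul_one, Units.val_mk0, ht] at e
      have e2 : (up s : H130.E7.SL k) = dt (Units.mk0 t ht0) * up 1 * (dt (Units.mk0 t ht0))⁻¹ := e.symm
      rw [e2, map_mul, map_mul, map_inv, h, mul_one, mul_inv_cancel]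
  have h2 : ∀ s : k, dsl k (lo s) = 1 := by
    intro s
    have e : (lo s : H130.E7.SL k) = up 1 * lo (-1) * up 1 * up (-s) * (up 1 * lo (-1) * up 1)⁻¹ := by
      rw [eq_mul_inv_iff_mul_eq]
      apply Subtype.ext
      show !![(1 : k), 0; s, 1] * (!![(1 : k), 1; 0, 1] * !![(1 : k), 0; -1, 1] * !![(1 : k), 1; 0, 1]) =
        !![(1 : k), 1; 0, 1] * !![(1 : k), 0; -1, 1] * !![(1 : k), 1; 0, 1] * !![(1 : k), -s; 0, 1]
      ext a b
      fin_cases a <;> fin_cases b <;> simp
    rw [e]
    simp only [map_mul, map_inv, h1, mul_one, one_mul, mul_inv_cancel]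
  have h3 : ∀ A : H130.E7.SL k, dsl k A = 1 := by
    intro A
    have h := closure_ind (dsl k).ker (MonoidHom.id (H130.E7.SL k)) (fun t => h1 t) (fun t => h2 t) A
    exact h
  -- an element with `t ^ 2 ≠ 1`
  obtain ⟨t, ht⟩ : ∃ t : k, t ≠ 0 ∧ t ^ 2 ≠ 1 := by
    by_contra hcon
    push Not at hcon
    have h5 : ∀ t : k, t ^ 3 - t = 0 := by
      intro t
      by_cases h6 : t = 0
      · rw [h6]; ring
      · have := hcon t h6
        linear_combination t * this
    have h7 : (Polynomial.X ^ 3 - Polynomial.X : Polynomial k) = 0 := by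
      apply Polynomial.funext
      intro t
      simp [h5 t]
    have h8 := congrArg (fun P : Polynomial k => P.coeff 1) h7
    simp [Polynomial.coeff_X] at h8
  refine dsl_dt_ne (t := Units.mk0 t ht.1) (by rw [Units.val_mk0]; exact ht.2) (h3 _)

end

section

variable {F : Type u} [Field F] [Finite F]

/-- **elements of the diagonal `SL₂(q)`** -/
theorem exists_dsl {p : ℕ} [Fact p.Prime] [CharP F p] {n : ℕ} (hn : n = p ∨ n = (Nat.card F - 1) / Nat.gcd 2 (Nat.card F - 1) ∨
    n = (Nat.card F + 1) / Nat.gcd 2 (Nat.card F - 1)) : ∃ A : H130.E7.SL F, orderOf (dsl F A) = n := by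
  classical
  have : Fintype F := Fintype.ofFinite F
  obtain ⟨k, _, _, f, r, _, hchk, m, hk, -, hm0, hm⟩ := exists_closure F
  have hrp : r = p := by
    have := charP_of_injective_ringHom f.injective p
    exact CharP.eq k hchk this
  subst hrp
  have hq2 : 2 ≤ Nat.card F := Finite.one_lt_card
  have hinj := emb_injective hE f
  have hor : ∀ A, orderOf (dsl F A) = orderOf (dsl k (Matrix.SpecialLinearGroup.map f A)) := fun A => by
    rw [← dsl_map, orderOf_injective _ hinj]
  rcases hn with rfl | rfl | rfl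
  · refine ⟨up 1, ?_⟩
    refine orderOf_eq_prime ?_ ?_
    · have e : ∀ j : ℕ, (up (1 : F)) ^ j = up (j : F) := by
        intro j
        induction j with
        | zero =>
          rw [pow_zero, Nat.cast_zero]
          apply Subtype.ext
          show 1 = !![(1 : F), 0; 0, 1]
          rw [Matrix.one_fin_two]
        | succ j ih =>
          rw [pow_succ, ih]
          apply Subtype.ext
          show !![(1 : F), (j : F); 0, 1] * !![(1 : F), 1; 0, 1] = !![(1 : F), ((j + 1 : ℕ) : F); 0, 1]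
          ext a b
          fin_cases a <;> fin_cases b <;> simp [add_comm]
      have e0 : (up (0 : F)) = 1 := by
        apply Subtype.ext
        show !![(1 : F), 0; 0, 1] = 1
        rw [Matrix.one_fin_two]
      rw [← map_pow, e, CharP.cast_eq_zero, e0, map_one]
    · intro h
      apply dsl_up_ne (k := k)
      have h1 := dsl_map f (up (1 : F))
      rw [h, map_one, map_up, map_one] at h1
      exact h1.symm
  · obtain ⟨ζ, hζ⟩ := IsCyclic.exists_generator (α := Fˣ)
    have hζo : orderOf ζ = Nat.card F - 1 := by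
      rw [orderOf_eq_card_of_forall_mem_zpowers hζ, Nat.card_units]
    exact ⟨dt ζ, by rw [orderOf_dsl_dt, orderOf_sq hζo, Nat.gcd_comm]⟩
  · have hg : Nat.gcd (Nat.card F + 1) 2 = Nat.gcd 2 (Nat.card F - 1) := by
      have h1 : Nat.card F + 1 = (Nat.card F - 1) + 2 := by omega
      rw [h1, Nat.gcd_comm, Nat.gcd_add_self_right]
    obtain ⟨n, hnq⟩ : ∃ n, n = Nat.card F + 1 := ⟨_, rfl⟩
    have hrn : ¬ r ∣ n := by
      intro h1
      have h2 : r ∣ Nat.card F := by rw [hm]; exact dvd_pow_self _ hm0.ne'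
      rw [hnq] at h1
      have h4 := (Nat.dvd_add_right h2).1 h1
      exact (Fact.out (p := r.Prime)).one_lt.ne' (Nat.dvd_one.1 h4)
    have hm0' : NeZero (n : k) := ⟨fun h1 => hrn ((CharP.cast_eq_zero_iff k r n).1 h1)⟩
    have hmN : NeZero n := ⟨by omega⟩
    obtain ⟨ζ₀, hζ₀⟩ := HasEnoughRootsOfUnity.exists_primitiveRoot k n
    have hz0 : ζ₀ ≠ 0 := hζ₀.ne_zero (by omega)
    obtain ⟨ζ, hζ⟩ : ∃ ζ : kˣ, ζ = Units.mk0 ζ₀ hz0 := ⟨_, rfl⟩
    have hζv : (ζ : k) = ζ₀ := by rw [hζ]; rfl
    have hζo : orderOf ζ = n := by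
      rw [← orderOf_units, hζv]
      exact hζ₀.eq_orderOf.symm
    have hζq : ζ ^ Nat.card F = ζ⁻¹ := by
      rw [eq_inv_iff_mul_eq_one, ← pow_succ, ← orderOf_dvd_iff_pow_eq_one, hζo, hnq]
    have hζq' : (ζ : k) ^ Nat.card F = (ζ : k)⁻¹ := by
      have := congrArg (fun a : kˣ => (a : k)) hζq
      simpa using this
    have htr : ((ζ : k) + (ζ : k)⁻¹) ^ Nat.card F = (ζ : k) + (ζ : k)⁻¹ := by
      have h5 : ((ζ : k) + (ζ : k)⁻¹) ^ r ^ m = (ζ : k) ^ r ^ m + ((ζ : k)⁻¹) ^ r ^ m := by
        have := map_add (iterateFrobenius k r m) (ζ : k) (ζ : k)⁻¹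
        simpa only [iterateFrobenius_def] using this
      rw [hm, h5, ← hm, inv_pow, hζq', inv_inv, add_comm]
    obtain ⟨t, ht⟩ : ∃ t : F, f t = (ζ : k) + (ζ : k)⁻¹ := by
      have hroots : (Polynomial.X ^ Nat.card F - Polynomial.X : Polynomial k).roots.toFinset =
          Finset.univ.image f := by
        apply Finset.eq_of_superset_of_card_ge
        · intro a ha
          obtain ⟨b, -, rfl⟩ := Finset.mem_image.1 ha
          rw [Multiset.mem_toFinset, Polynomial.mem_roots (FiniteField.X_pow_card_sub_X_ne_zero k hq2)]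
          simp only [Polynomial.IsRoot.def, Polynomial.eval_sub, Polynomial.eval_pow, Polynomial.eval_X]
          rw [← map_pow, Nat.card_eq_fintype_card, FiniteField.pow_card, sub_self]
        · rw [Finset.card_image_of_injective _ f.injective, Finset.card_univ, ← Nat.card_eq_fintype_card]
          refine (Multiset.toFinset_card_le _).trans ((Polynomial.card_roots' _).trans ?_)
          rw [FiniteField.X_pow_card_sub_X_natDegree_eq k hq2]
      have h6 : (ζ : k) + (ζ : k)⁻¹ ∈ Finset.univ.image f := by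
        rw [← hroots, Multiset.mem_toFinset, Polynomial.mem_roots (FiniteField.X_pow_card_sub_X_ne_zero k hq2)]
        simp only [Polynomial.IsRoot.def, Polynomial.eval_sub, Polynomial.eval_pow, Polynomial.eval_X]
        rw [htr, sub_self]
      obtain ⟨b, -, hb⟩ := Finset.mem_image.1 h6
      exact ⟨b, hb⟩
    have hne : (ζ : k) ≠ (ζ : k)⁻¹ := by
      intro h5
      have h6 : ζ ^ 2 = 1 := by
        apply Units.ext
        rw [Units.val_pow_eq_pow_val, Units.val_one, pow_two]
        nth_rw 2 [h5]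
        exact mul_inv_cancel₀ ζ.ne_zero
      have h7 := orderOf_dvd_of_pow_eq_one h6
      rw [hζo] at h7
      have := Nat.le_of_dvd (by norm_num) h7
      omega
    obtain ⟨A, P, hA⟩ := exists_diag f hne ht.symm
    refine ⟨A, ?_⟩
    rw [hor, hA, map_mul, map_mul, map_inv, orderOf_conj']
    have e : dsl k (H405.UE.dg ζ) = dsl k (dt ζ) := rfl
    rw [e, orderOf_dsl_dt, orderOf_sq hζo, hnq, hg]

/-- **a prime dividing `|F₄(q)|` commutes with a diagonal `PSL₂(q)`** -/
theorem exists_f4 {p : ℕ} [Fact p.Prime] [CharP F p] {r : ℕ} (hr : r.Prime) (hd : r ∣ Nat.card ↥(chevF4.group F)) :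
    ∃ x : ↥(chevE7.group F), orderOf x = r ∧ ∀ n : ℕ, (n = p ∨ n = (Nat.card F - 1) / Nat.gcd 2 (Nat.card F - 1) ∨
      n = (Nat.card F + 1) / Nat.gcd 2 (Nat.card F - 1)) → ∃ y : ↥(chevE7.group F), orderOf y = n ∧ Commute x y := by
  have hf : Fact r.Prime := ⟨hr⟩
  obtain ⟨x, hx⟩ := exists_prime_orderOf_dvd_card' r hd
  refine ⟨toE7 F x, by rw [orderOf_injective _ (toE7_injective F), hx], fun n hn => ?_⟩
  obtain ⟨A, hA⟩ := exists_dsl (F := F) hn
  exact ⟨dsl F A, hA, toE7_commute_dsl x A⟩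

end

end Cfsg.Agent.H962.E7.Diag
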