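import Cfsg.Agent.H962.E7.Diag
import Cfsg.Agent.H962.E7.FE7
import Cfsg.Agent.H824.E7.Facts
import Cfsg.Agent.H378.ExcNear
import Cfsg.Agent.H436.Names

/-!
# S3482: facts on `E₇(u)` (helper962)
-/

set_option autoImplicit false
set_option linter.unusedSectionVars false

namespace Cfsg.Agent.H962.E7

open Subgroup Cfsg Cfsg.Lie Cfsg.Lie.ChevalleyDatum
open Cfsg.Agent.H436
open Cfsg.Agent.ChevalleyStructure.CoxeterGeomTypes Cfsg.Agent.ChevalleyStructure.CoxeterGeom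
open Cfsg.Agent.Nodes.RGDChev Cfsg.Agent.BpExc.FamExt Cfsg.Agent.BpExc.FamInst Cfsg.Agent.BpExc.RowsUntw
open Cfsg.Agent.H378.AdjTab Cfsg.Agent.H378.CycTab Cfsg.Agent.H378.ExcAdj Cfsg.Agent.H378.ExcNear
open Cfsg.Agent.Tits.Roots Cfsg.Agent.Tits.Core
open Cfsg.Agent.H129 Cfsg.Agent.H824.E7.Tor Cfsg.Agent.H824.E7.Facts

universe u

theorem prim_iff' {q i r : ℕ} (hq : 1 ≤ q) (hr : r.Prime) (hi : 0 < i) : Prim q i r ↔ orderOf (q : ZMod r) = i := by
  have key : ∀ m : ℕ, r ∣ q ^ m - 1 ↔ orderOf (q : ZMod r) ∣ m := by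
    intro m
    rw [orderOf_dvd_iff_pow_eq_one]
    have h1 : 1 ≤ q ^ m := Nat.one_le_pow _ _ hq
    rw [← ZMod.natCast_eq_zero_iff (q ^ m - 1) r, Nat.cast_sub h1, Nat.cast_pow, Nat.cast_one, sub_eq_zero]
  constructor
  · intro h
    apply Nat.dvd_antisymm
    · rw [← key]
      exact h.dvd dvd_rfl
    · rw [← h.dvd_iff, key]
  · intro h
    refine { prime := hr, not_dvd := ?_, dvd_iff := fun m => by rw [key, h] }
    intro h1
    have h2 : ((q : ℕ) : ZMod r) = 0 := (ZMod.natCast_eq_zero_iff q r).2 h1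
    rw [h2] at h
    have hf : Fact r.Prime := ⟨hr⟩
    have h3 : (0 : ZMod r) ^ i = 1 := by rw [← h]; exact pow_orderOf_eq_one _
    rw [zero_pow hi.ne'] at h3
    exact zero_ne_one h3

theorem pair7 : ∀ i : Fin 7, ∃ v : Fin 7 → ℤ, pairing (cartanOf chevE7 7) i v = 1 ∨ pairing (cartanOf chevE7 7) i v = -1 := by
  have h : ∀ i : Fin 7, ∃ j : Fin 7, cartanOf chevE7 7 i j = -1 := by decide +kernel
  intro i
  obtain ⟨j, hj⟩ := h i
  refine ⟨sr j, Or.inr ?_⟩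
  rw [← hj]
  unfold pairing
  rw [Finset.sum_eq_single j]
  · rw [sr_self, mul_one]
  · intro k _ hk
    rw [sr_ne hk, mul_zero]
  · intro h1
    exact absurd (Finset.mem_univ j) h1

section

variable {F : Type u} [Field F] [Finite F]

theorem dvd_f4 {r : ℕ} (h : r ∣ Nat.card F ^ 2 - 1 ∨ r ∣ Nat.card F ^ 6 - 1 ∨ r ∣ Nat.card F ^ 8 - 1 ∨
    r ∣ Nat.card F ^ 12 - 1) : r ∣ Nat.card ↥(chevF4.group F) := by
  have : Fintype F := Fintype.ofFinite F
  have h0 := Cfsg.Agent.S1062.result (F := F) rfl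
  rw [← Nat.card_eq_fintype_card] at h0
  rw [h0]
  rcases h with h | h | h | h
  · exact ((((h.mul_left _).mul_right _).mul_right _).mul_right _)
  · exact (((h.mul_left _).mul_right _).mul_right _)
  · exact ((h.mul_left _).mul_right _)
  · exact (h.mul_left _)

/-- a prime not of the classes 7, 9, 14, 18 -/
theorem low_E7 {p : ℕ} [Fact p.Prime] [CharP F p] {r : ℕ} (hr : r.Prime) (hd : r ∣ Nat.card ↥(chevE7.group F))
    (hrq : ¬ r ∣ Nat.card F) (h7 : od (Nat.card F) r ≠ 7) (h9 : od (Nat.card F) r ≠ 9)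
    (h14 : od (Nat.card F) r ≠ 14) (h18 : od (Nat.card F) r ≠ 18) :
    ∃ x : ↥(chevE7.group F), orderOf x = r ∧ ∀ n : ℕ, (n = p ∨ n = (Nat.card F - 1) / Nat.gcd 2 (Nat.card F - 1) ∨
      n = (Nat.card F + 1) / Nat.gcd 2 (Nat.card F - 1)) → ∃ y : ↥(chevE7.group F), orderOf y = n ∧ Commute x y := by
  let cs : CoxeterSystem CoxeterMatrix.E₇ CoxeterMatrix.E₇.Group := CoxeterMatrix.E₇.toCoxeterSystem
  have := finite_W e7T cs
  have hq : 1 ≤ Nat.card F := Nat.card_pos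
  have hn1 : ∀ {m : ℕ}, m ≠ 1 → od (Nat.card F) r = m → ¬ r ∣ Nat.card F - 1 := by
    intro m hm h3 h4
    have h5 : od (Nat.card F) r ∣ 1 := od_dvd hq (by rw [pow_one]; exact h4)
    rw [h3] at h5
    exact hm (Nat.dvd_one.1 h5)
  have key : ∀ n, od (Nat.card F) r ∣ n → r ∣ Nat.card F ^ n - 1 := fun n hn => dvd_of_od_dvd hq hn
  have hrow : (∃ x : ↥(chevE7.group F), orderOf x = r ∧ ∀ m : ℕ, (m = p ∨ m ∣ Nat.card F - 1 ∨ m ∣ Nat.card F + 1) →
      ∃ y : ↥(chevE7.group F), orderOf y = m ∧ Commute x y) →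
      ∃ x : ↥(chevE7.group F), orderOf x = r ∧ ∀ n : ℕ, (n = p ∨ n = (Nat.card F - 1) / Nat.gcd 2 (Nat.card F - 1) ∨
      n = (Nat.card F + 1) / Nat.gcd 2 (Nat.card F - 1)) → ∃ y : ↥(chevE7.group F), orderOf y = n ∧ Commute x y := by
    rintro ⟨x, hx, hxy⟩
    refine ⟨x, hx, fun n hn => hxy n ?_⟩
    have hg1 : Nat.gcd 2 (Nat.card F - 1) ∣ Nat.card F - 1 := Nat.gcd_dvd_right _ _
    have hg2 : Nat.gcd 2 (Nat.card F - 1) ∣ Nat.card F + 1 := by
      have h1 : Nat.card F + 1 = (Nat.card F - 1) + 2 := by omega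
      rw [h1]
      exact dvd_add hg1 (Nat.gcd_dvd_left _ _)
    rcases hn with rfl | rfl | rfl
    · exact Or.inl rfl
    · exact Or.inr (Or.inl (Nat.div_dvd_of_dvd hg1))
    · exact Or.inr (Or.inr (Nat.div_dvd_of_dvd hg2))
  rcases od_E7 hr hd with h | h | h | h | h | h | h | h | h | h | h | h | h | h
  · exact absurd h hrq
  · exact Diag.exists_f4 hr (dvd_f4 (Or.inl (key 2 (by rw [h]; decide))))
  · exact Diag.exists_f4 hr (dvd_f4 (Or.inl (key 2 (by rw [h]))))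
  · exact Diag.exists_f4 hr (dvd_f4 (Or.inr (Or.inl (key 6 (by rw [h]; decide)))))
  · exact Diag.exists_f4 hr (dvd_f4 (Or.inr (Or.inr (Or.inl (key 8 (by rw [h]; decide))))))
  · exact hrow (H962.RootSL.exists_row_sl e7T cs inv_E7 two_ne_zero pair7 H378.AdjE7.hA H378.AdjE7.lt_nroots
      H378.AdjE7.row5 hr (hn1 (by decide) h) (dvd5 hr h))
  · exact Diag.exists_f4 hr (dvd_f4 (Or.inr (Or.inl (key 6 (by rw [h])))))
  · exact absurd h h7
  · exact Diag.exists_f4 hr (dvd_f4 (Or.inr (Or.inr (Or.inl (key 8 (by rw [h]))))))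
  · exact absurd h h9
  · exact hrow (H962.RootSL.exists_row_sl e7T cs inv_E7 two_ne_zero pair7 H378.AdjE7.hA H378.AdjE7.lt_nroots
      H378.AdjE7.row10 hr (hn1 (by decide) h) (dvd10 hr h))
  · exact Diag.exists_f4 hr (dvd_f4 (Or.inr (Or.inr (Or.inr (key 12 (by rw [h]))))))
  · exact absurd h h14
  · exact absurd h h18

end

section

variable (F : Type u) [Field F] [Fintype F]

theorem exi_E7 {i : ℕ} (hi : i ∈ C4) : ∃ x : ↥(chevE7.group F), orderOf x = TT (Fintype.card F) i := by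
  obtain ⟨q, hq⟩ : ∃ q, Fintype.card F = q := ⟨_, rfl⟩
  rw [hq]
  have hq2 : 2 ≤ q := by rw [← hq]; exact Fintype.one_lt_card
  have hq1 : 1 ≤ q := by omega
  have hd0 : 0 < dd q := Nat.gcd_pos_of_pos_left _ (by norm_num)
  have key : ∀ (T : Subgroup ↥(chevE7.group F)) (N : ℕ), IsCyclic ↥T → dd q * Nat.card ↥T = N →
      ∃ x : ↥(chevE7.group F), orderOf x = N / dd q := by
    intro T N hT hc
    apply exists_of_torus hT
    rw [← hc, Nat.mul_div_cancel_left _ hd0]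
  simp only [C4, Finset.mem_insert, Finset.mem_singleton] at hi
  rcases hi with rfl | rfl | rfl | rfl
  · have hN : ((q ^ 7 - 1 : ℕ) : ℤ) = -1 + (q : ℤ) ^ 7 := by
      push_cast [Nat.cast_sub (Nat.one_le_pow 7 q hq1)]; ring
    obtain ⟨T, hT, hc, -⟩ := tor hq DataE7s.hA DataE7s.chainOK DataE7s.cycOK DataE7s.rootOK
      (N := q ^ 7 - 1) (by rw [DataE7s.fN_eq, hN]) (RealT.coprime_of_neg (a := (q : ℤ) ^ 6) (by rw [hN]; ring))
    exact key T _ hT hc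
  · have hN : (((q - 1) * (q ^ 6 + q ^ 3 + 1) : ℕ) : ℤ) =
        -1 + (q : ℤ) - (q : ℤ) ^ 3 + (q : ℤ) ^ 4 - (q : ℤ) ^ 6 + (q : ℤ) ^ 7 := by
      push_cast [Nat.cast_sub hq1]; ring
    obtain ⟨T, hT, hc, -⟩ := tor hq DataE7n.hA DataE7n.chainOK DataE7n.cycOK DataE7n.rootOK
      (N := (q - 1) * (q ^ 6 + q ^ 3 + 1)) (by rw [DataE7n.fN_eq, hN])
      (RealT.coprime_of_neg (a := 1 - (q : ℤ) ^ 2 + (q : ℤ) ^ 3 - (q : ℤ) ^ 5 + (q : ℤ) ^ 6) (by rw [hN]; ring))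
    exact key T _ hT hc
  · have hN : ((q ^ 7 + 1 : ℕ) : ℤ) = 1 + (q : ℤ) ^ 7 := by push_cast; ring
    obtain ⟨T, hT, hc, -⟩ := tor hq DataE7m.hA DataE7m.chainOK DataE7m.cycOK DataE7m.rootOK (N := q ^ 7 + 1)
      (by rw [DataE7m.fN_eq, hN]) (UntwData.coprime_of_eq (a := (q : ℤ) ^ 6) (by rw [hN]; ring))
    exact key T _ hT hc
  · have hle : q ^ 3 ≤ q ^ 6 := Nat.pow_le_pow_right hq1 (by norm_num)
    have hN : (((q + 1) * (q ^ 6 - q ^ 3 + 1) : ℕ) : ℤ) =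
        1 + (q : ℤ) - (q : ℤ) ^ 3 - (q : ℤ) ^ 4 + (q : ℤ) ^ 6 + (q : ℤ) ^ 7 := by
      push_cast [Nat.cast_sub hle]; ring
    obtain ⟨T, hT, hc, -⟩ := tor hq DataE7h.hA DataE7h.chainOK DataE7h.cycOK DataE7h.rootOK
      (N := (q + 1) * (q ^ 6 - q ^ 3 + 1)) (by rw [DataE7h.fN_eq, hN])
      (UntwData.coprime_of_eq (a := 1 - (q : ℤ) ^ 2 - (q : ℤ) ^ 3 + (q : ℤ) ^ 5 + (q : ℤ) ^ 6) (by rw [hN]; ring))
    exact key T _ hT hc

end

theorem mem_C4 {i : ℕ} (hi : i ∈ C4) : i = 7 ∨ i = 9 ∨ i = 14 ∨ i = 18 := by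
  simpa only [C4, Finset.mem_insert, Finset.mem_singleton] using hi

/-- **the facts on `E₇(u)`** -/
theorem fE7 {v u : ℕ} (hv : v.Prime) (hu : ∃ f, 1 ≤ f ∧ u = v ^ f) {S : Type u} [Group S] [Finite S]
    (h : IsNamed (.e7 u) S) : FE7 v u S := by
  obtain ⟨F, _, _, hF, ⟨e⟩⟩ := h.real
  obtain ⟨f, hf, rfl⟩ := hu
  have hcF : Nat.card F = v ^ f := by rw [Nat.card_eq_fintype_card, hF]
  have hvf : Fact v.Prime := ⟨hv⟩
  have hch : CharP F v := by
    obtain ⟨c, hc⟩ := CharP.exists F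
    have hcp : c.Prime := CharP.char_is_prime F c
    obtain ⟨n, -, hn⟩ := FiniteField.card F c
    rw [hF] at hn
    have h1 : c ∣ v ^ f := by rw [hn]; exact dvd_pow_self c n.ne_zero
    have h2 := (Nat.prime_dvd_prime_iff_eq hcp hv).1 (hcp.dvd_of_dvd_pow h1)
    rwa [h2] at hc
  have hq : 1 ≤ Nat.card F := Nat.card_pos
  have hor : ∀ y : ↥(chevE7.group F), orderOf (e.symm y) = orderOf y := fun y => MulEquiv.orderOf_eq _ _
  refine ⟨?_, ?_, ?_, ?_⟩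
  · intro r hr hd hrv hI
    rw [Nat.card_congr e.toEquiv] at hd
    have hrq : ¬ r ∣ Nat.card F := by
      rw [hcF]
      intro h1
      exact hrv ((Nat.prime_dvd_prime_iff_eq hr hv).1 (hr.dvd_of_dvd_pow h1))
    have hne : ∀ i ∈ C4, od (Nat.card F) r ≠ i := by
      intro i hi h1
      apply hI i hi
      rw [← hcF]
      exact (prim_iff' hq hr (by have := mem_C4 hi; omega)).2 h1
    obtain ⟨x, hx, hxy⟩ := low_E7 (p := v) hr hd hrq (hne 7 (by decide)) (hne 9 (by decide)) (hne 14 (by decide))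
      (hne 18 (by decide))
    refine ⟨e.symm x, by rw [hor, hx], fun n hn => ?_⟩
    obtain ⟨y, hy, hc⟩ := hxy n (by
      simp only [Finset.mem_insert, Finset.mem_singleton] at hn
      rw [hcF]
      exact hn)
    exact ⟨e.symm y, by rw [hor, hy], hc.map e.symm.toMonoidHom⟩
  · intro hv2
    have h2 : 2 ∣ Nat.card F - 1 := by
      rw [hcF]
      have h1 : Odd (v ^ f) := (hv.odd_of_ne_two hv2).pow
      obtain ⟨m, hm⟩ := h1
      exact ⟨m, by omega⟩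
    obtain ⟨x, hx, hxy⟩ := H962.RootSL.exists_split_sl e7T pair7 (i := 6) (j := 0) (by decide +kernel) h2 (p := v)
    obtain ⟨y, hy, hc⟩ := hxy v (Or.inl rfl)
    refine ⟨e.symm (x * y), ?_⟩
    rw [hor, hc.orderOf_mul_eq_mul_orderOf_of_coprime, hx, hy]
    rw [hx, hy]
    exact (Nat.coprime_primes Nat.prime_two hv).2 (Ne.symm hv2)
  · intro i hi
    obtain ⟨x, hx⟩ := exi_E7 F hi
    exact ⟨e.symm x, by rw [hor, hx, hF]⟩
  · intro i hi x r hr hx
    have h1 := tor_L F i hi (e x) r (by rw [hF]; exact hr) (by rw [MulEquiv.orderOf_eq]; exact hx)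
    rwa [MulEquiv.orderOf_eq, hF] at h1

end Cfsg.Agent.H962.E7
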